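import Cfsg.Agent.Lib.J3.DataO

/-! Orbit checks, part 1 (generated). -/

set_option autoImplicit false
set_option maxRecDepth 100000

namespace H15
namespace J3M

theorem orb_0 : H54.allFrom orbAt 0 16384 = true := by decide +kernel
theorem orb_16384 : H54.allFrom orbAt 16384 16384 = true := by decide +kernel
theorem orb_32768 : H54.allFrom orbAt 32768 32768 = true := by decide +kernel

end J3M
end H15
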