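import Cfsg.Agent.Lib.J3.DataO

/-! Orbit checks, part 2 (generated). -/

set_option autoImplicit false
set_option maxRecDepth 100000

namespace H15
namespace J3M

theorem orb_65536 : H54.allFrom orbAt 65536 8192 = true := by decide +kernel
theorem orb_73728 : H54.allFrom orbAt 73728 8192 = true := by decide +kernel
theorem orb_81920 : H54.allFrom orbAt 81920 8192 = true := by decide +kernel
theorem orb_90112 : H54.allFrom orbAt 90112 8192 = true := by decide +kernel

end J3M
end H15
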