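import Cfsg.Agent.Lib.J3.DataO

/-! Orbit checks, part 3 (generated). -/

set_option autoImplicit false
set_option maxRecDepth 100000

namespace H15
namespace J3M

theorem orb_98304 : H54.allFrom orbAt 98304 8192 = true := by decide +kernel
theorem orb_106496 : H54.allFrom orbAt 106496 8192 = true := by decide +kernel
theorem orb_114688 : H54.allFrom orbAt 114688 8192 = true := by decide +kernel
theorem orb_122880 : H54.allFrom orbAt 122880 8192 = true := by decide +kernel

end J3M
end H15
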