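import Cfsg.Agent.Lib.J3.Basic
import Cfsg.Agent.Lib.J3.DataO1
import Cfsg.Agent.Lib.J3.DataO2
import Cfsg.Agent.Lib.J3.DataO3

/-!
# Orbits of the triple cover of `J₃` on lines
-/

set_option autoImplicit false
set_option maxRecDepth 100000
set_option exponentiation.threshold 2000

namespace H15
namespace J3M
open Mdl Cfsg Cfsg.Spor Matrix H54

theorem orb_ok : ∀ x, x < 131072 → orbAt x = true :=
  forall_append (k := 122880) (forall_append (k := 114688) (forall_append (k := 106496)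
    (forall_append (k := 98304) (forall_append (k := 90112) (forall_append (k := 81920)
    (forall_append (k := 73728) (forall_append (k := 65536) (forall_append (k := 32768)
    (forall_append (k := 16384) (forall_of_allLt (allLt_of_allFrom _ _ orb_0)) orb_16384) orb_32768)
    orb_65536) orb_73728) orb_81920) orb_90112) orb_98304) orb_106496) orb_114688) orb_122880

theorem orb_spec {x : ℕ} (hx : x < 131072) :
    (lab x = 0 → can4 L5 x = x → x = 0 ∨ wt9 x % 2 = 1) ∧ (lab x ≠ 0 → ∃ p p', (p = al ∧ p' = y0 ∨ p = y0 ∧ p' = al) ∧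
      lab x &&& 2 = lab (stepv p x) &&& 2 ∧ (x = (if lab x &&& 2 = 2 then 1 else 5) ∨
        (lab (stepv p x) ≠ 0 ∧ lab (stepv p x) >>> 2 < lab x >>> 2)) ∧
      (lab x &&& 2 = 2 → can4 L5 x = x ∧ wt9 x % 2 = 1 ∧ lab (stepv p' x) &&& 2 = 2)) := by
  have h := orb_ok x hx
  simp only [orbAt, inA, force_eq, sel_eq, Nat.beq_eq] at h
  refine ⟨fun h0 => ?_, fun h0 => ?_⟩
  · rw [if_pos h0] at h
    simp only [bimp_eq_true, bor_eq_true, Nat.beq_eq] at h
    exact h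
  · rw [if_neg h0] at h
    simp only [bimp_eq_true, bor_eq_true, band_eq_true, Nat.beq_eq, Nat.ble_eq] at h
    refine ⟨_, _, ?_, h.1, h.2.1.imp_right fun a => ⟨Nat.one_le_iff_ne_zero.1 a.1, a.2⟩, h.2.2⟩
    split_ifs <;> simp

variable {F : Type*} [Field F] {ω : F}

/-- the vector with code `x` -/
def vec (ω : F) (x : ℕ) : F9 → F := dec (b4 ω ix) (2 * 9) x

/-- `v` is an image of `u` -/
def Rel (ω : F) (u v : F9 → F) : Prop := ∃ g ∈ threeJ3 F ω, (g : Matrix F9 F9 F) *ᵥ u = v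

theorem Rel.refl (u : F9 → F) : Rel ω u u := ⟨1, Subgroup.one_mem _, Matrix.one_mulVec u⟩

theorem Rel.trans {u v w : F9 → F} (a : Rel ω u v) (b : Rel ω v w) : Rel ω u w := by
  obtain ⟨g, hg, rfl⟩ := a
  obtain ⟨h, hh, rfl⟩ := b
  exact ⟨h * g, Subgroup.mul_mem _ hh hg, (Matrix.mulVec_mulVec _ _ _).symm⟩

theorem Rel.symm {u v : F9 → F} (a : Rel ω u v) : Rel ω v u := by
  obtain ⟨g, hg, rfl⟩ := a
  exact ⟨g⁻¹, Subgroup.inv_mem _ hg, by rw [Matrix.mulVec_mulVec, Units.inv_mul, Matrix.one_mulVec]⟩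

theorem vec_wop (X : Is4 F ω) (x : ℕ) : vec ω (wop L5 x) = ω • vec ω x := by
  rw [L5_eq]; exact dec_wop X num (by norm_num) x

theorem wop_lt18 {x : ℕ} (h : x < 2 ^ (2 * 9)) : wop L5 x < 2 ^ (2 * 9) := by rw [L5_eq]; exact wop_lt h

theorem vec_inj (X : Is4 F ω) {x y : ℕ} (hx : x < 2 ^ (2 * 9)) (hy : y < 2 ^ (2 * 9))
    (e : vec ω x = vec ω y) : x = y :=
  dec_inj (f2Data4 X num (rho4 F9 F)).two (f2Data4 X num (rho4 F9 F)).ind hx hy e

theorem rel_smul (X : Is4 F ω) (u : F9 → F) : Rel ω u (ω • u) :=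
  ⟨sc X, (sc X).2, by rw [sc_val, Matrix.smul_mulVec, Matrix.one_mulVec]⟩

theorem vec_can (X : Is4 F ω) (x : ℕ) : ∃ k : ℕ, vec ω (can4 L5 x) = ω ^ k • vec ω x := by
  rcases can4_cases L5 x with e | e | e <;> rw [e]
  exacts [⟨0, by simp⟩, ⟨1, by rw [vec_wop X, pow_one]⟩, ⟨2, by rw [vec_wop X, vec_wop X, smul_smul, sq]⟩]

theorem rel_pow (X : Is4 F ω) (u : F9 → F) : ∀ k : ℕ, Rel ω u (ω ^ k • u)
  | 0 => by simpa using Rel.refl u
  | k + 1 => by rw [pow_succ', mul_smul]; exact (rel_pow X u k).trans (rel_smul X _)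

theorem can_wop (X : Is4 F ω) {x : ℕ} (h : x < 2 ^ (2 * 9)) : can4 L5 (wop L5 x) = can4 L5 x :=
  can4_wop (vec_inj X (wop_lt18 (wop_lt18 (wop_lt18 h))) h (by
    rw [vec_wop X, vec_wop X, vec_wop X, smul_smul, smul_smul, ← pow_three', X.cube, one_smul]))

theorem can_eq_of_smul (X : Is4 F ω) {x y : ℕ} (hx : x < 2 ^ (2 * 9)) (hy : y < 2 ^ (2 * 9)) {c : F}
    (hc : c ≠ 0) (e : vec ω y = c • vec ω x) : can4 L5 y = can4 L5 x := by
  obtain ⟨k, hk, rfl⟩ := X.all c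
  interval_cases k
  · exact absurd f4_zero hc
  · rw [vec_inj X hy hx (by rw [e, f4_one, one_smul])]
  · rw [vec_inj X hy (wop_lt18 hx) (by rw [e, f4_two, vec_wop X]), can_wop X hx]
  · rw [vec_inj X hy (wop_lt18 (wop_lt18 hx)) (by rw [e, ← sq_eq X, vec_wop X, vec_wop X, smul_smul, sq]),
      can_wop X (wop_lt18 hx), can_wop X hx]

theorem can_can (X : Is4 F ω) {x : ℕ} (h : x < 2 ^ (2 * 9)) : can4 L5 (can4 L5 x) = can4 L5 x := by
  rcases can4_cases L5 x with e | e | e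
  · rw [e, e]
  · conv_lhs => rw [e, can_wop X h]
  · conv_lhs => rw [e, can_wop X (wop_lt18 h), can_wop X h]

theorem can_lt {x : ℕ} (h : x < 2 ^ (2 * 9)) : can4 L5 x < 131072 := by
  have key : ∀ y, y < 2 ^ (2 * 9) → dig 2 y 8 ≤ 1 → y < 131072 := fun y hy h1 => by
    have : dig 2 y 8 = y / 65536 % 4 := by
      show (y >>> 16) % 4 = _
      rw [Nat.shiftRight_eq_div_pow]
    omega
  have e : ∀ y, dig 2 (wop L5 y) 8 = wm (dig 2 y 8) := fun y => by rw [L5_eq, dig_wop, if_pos (by norm_num)]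
  have h1 := key x h
  have h2 := key _ (wop_lt18 h)
  have h3 := key _ (wop_lt18 (wop_lt18 h))
  rw [e, e] at h3
  rw [e] at h2
  have h4 := dig_lt 2 x 8
  rw [can4_eq]
  generalize dig 2 x 8 = c at h1 h2 h3 h4
  interval_cases c
  · have := h1 (by norm_num); omega
  · have := h1 (by norm_num); omega
  · have := h3 (by decide); omega
  · have := h2 (by decide); omega

theorem step_spec (X : Is4 F ω) {g : threeJ3 F ω} {p : ℕ} (r : R1 ω g p) {x : ℕ} (hx : x < 131072) :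
    stepv p x < 131072 ∧ ∃ k : ℕ, vec ω (stepv p x) =
      ω ^ k • (((g : GL F9 F) : Matrix F9 F9 F) *ᵥ vec ω x) := by
  obtain ⟨h1, h2⟩ := R2.dec_act (f2Data4 X num (rho4 F9 F)) r (x := x) (by omega)
  rw [← o18_act_eq] at h1 h2
  obtain ⟨k, hk⟩ := vec_can X (o18_act p x)
  exact ⟨can_lt h1, k, hk.trans (congrArg _ h2)⟩

theorem exists_R1 (X : Is4 F ω) {p : ℕ} (hp : p = al ∨ p = y0) : ∃ g, R1 ω g p := by
  obtain ⟨x, -, r⟩ := vG X p (by rcases hp with rfl | rfl <;> decide +kernel)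
  obtain ⟨g, -, rg⟩ := r.exists X
  exact ⟨g, rg⟩

theorem rel_root (X : Is4 F ω) : ∀ d x, x < 131072 → lab x ≠ 0 → lab x >>> 2 = d →
    Rel ω (vec ω x) (vec ω (if lab x &&& 2 = 2 then 1 else 5)) := by
  intro d
  induction d using Nat.strong_induction_on with
  | _ d ih =>
    rintro x hx h0 rfl
    obtain ⟨p, p', hp, h1, h2 | h2, -⟩ := (orb_spec hx).2 h0
    · rw [← h2]; exact .refl _
    · obtain ⟨g, r⟩ := exists_R1 X (hp.imp And.left And.left)
      obtain ⟨h3, k, h4⟩ := step_spec X r hx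
      rw [h1]
      refine Rel.trans ?_ (ih _ h2.2 _ h3 h2.1 rfl)
      rw [h4]
      exact Rel.trans ⟨g, g.2, rfl⟩ (rel_pow X _ k)

theorem sum_cube (X : Is4 F ω) (x : ℕ) : ∑ z, vec ω x z ^ 3 = (wt9 x : F) := by
  have e : wt9 x = ∑ k ∈ Finset.range 9, if dig 2 x k = 0 then 0 else 1 := by
    simp only [wt9, sel_eq, Nat.beq_eq, Finset.sum_range_succ, Finset.range_zero, Finset.sum_empty]; rfl
  rw [e, Nat.cast_sum]
  refine Finset.sum_nbij' ix pt (fun z _ => Finset.mem_range.2 (num.lt z)) (fun _ _ => Finset.mem_univ _)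
    (fun z _ => num.pt_ix z) (fun k hk => num.ix_pt k (Finset.mem_range.1 hk)) fun z _ => ?_
  rw [vec, dec_b4 num, X.f4_cube (dig_lt 2 _ _)]
  split_ifs <;> simp

theorem cast_odd (X : Is4 F ω) {n : ℕ} (h : n % 2 = 1) : (n : F) ≠ 0 := by
  rw [← Nat.div_add_mod n 2, h, Nat.cast_add, Nat.cast_mul, Nat.cast_two, ← one_add_one_eq_two, X.two]
  simp

theorem rel_iso (X : Is4 F ω) {v : F9 → F} (h0 : v ≠ 0) (h : ∑ z, v z ^ 3 = 0) : Rel ω v (vec ω 5) := by
  obtain ⟨x, hx, rfl⟩ := exists_dec4 X num v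
  obtain ⟨k, hk⟩ := vec_can X x
  have hω : ω ≠ 0 := fun e => by simpa [e] using X.cube
  have h1 : wt9 (can4 L5 x) % 2 ≠ 1 := fun e => cast_odd X e (by
    rw [← sum_cube X, hk]
    simp only [Pi.smul_apply, smul_eq_mul, mul_pow, ← Finset.mul_sum]
    exact mul_eq_zero_of_right _ h)
  obtain ⟨s1, s2⟩ := orb_spec (can_lt hx)
  have h2 : lab (can4 L5 x) ≠ 0 := fun e => h1 ((s1 e (can_can X hx)).resolve_left fun e' => h0 (by
    rw [e', vec, dec_zero, eq_comm, smul_eq_zero] at hk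
    exact hk.resolve_left (pow_ne_zero _ hω)))
  obtain ⟨_, _, -, -, -, h3⟩ := s2 h2
  have := rel_root X _ _ (can_lt hx) h2 rfl
  rw [if_neg fun e => h1 (h3 e).2.1, hk] at this
  exact (rel_pow X _ k).trans this

theorem vec_one : vec ω 1 = Pi.single 0 1 := by
  funext w
  rw [vec, dec_b4 num, (by decide : ∀ w, dig 2 1 (ix w) = if w = 0 then 1 else 0), apply_ite (f4 ω), f4_one,
    f4_zero, Pi.single_apply]

theorem orbit_lines (X : Is4 F ω) : {L : Submodule F (F9 → F) | ∃ g ∈ threeJ3 F ω,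
    L = F ∙ ((g : Matrix F9 F9 F) *ᵥ (Pi.single (0 : F9) (1 : F) : F9 → F))}.ncard = 23256 := by
  have : Finite (threeJ3 F ω) := Nat.finite_of_card_ne_zero (by rw [card_threeJ3 X]; norm_num)
  have hω : ω ≠ 0 := fun e => by simpa [e] using X.cube
  have hA : ∀ x, lab x &&& 2 = 2 → lab x ≠ 0 := fun x h e => by simp [e] at h
  -- the set of lines with label `A` is invariant
  let P : (F9 → F) → Prop := fun v => ∃ x, x < 131072 ∧ lab x &&& 2 = 2 ∧ ∃ c : F, c ≠ 0 ∧ v = c • vec ω x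
  let U : Submonoid (threeJ3 F ω) :=
    { carrier := {g | ∀ v, P v → P (((g : GL F9 F) : Matrix F9 F9 F) *ᵥ v)}
      one_mem' := fun v h => by simpa using h
      mul_mem' := fun {a b} ha hb v h => by
        have := ha _ (hb v h)
        rwa [Matrix.mulVec_mulVec] at this }
  let U' : Subgroup (threeJ3 F ω) := { U with
    inv_mem' := fun {g} hg => by
      exact Submonoid.powers_le.2 (show g ∈ U from hg)
        (mem_powers_iff_mem_zpowers.2 (Subgroup.inv_mem _ (Subgroup.mem_zpowers g))) }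
  have hU : U' = ⊤ := by
    refine eq_top_of_map_mk (K := Subgroup.center _) ?_ (eq_top_of_allIn (snd X) (grpG X) fun s hs => ?_)
    · rw [center_eq X, Subgroup.zpowers_le]
      rintro _ ⟨x, hx, h1, c, hc, rfl⟩
      exact ⟨x, hx, h1, ω * c, mul_ne_zero hω hc, by
        rw [sc_val, Matrix.smul_mulVec, Matrix.one_mulVec, mul_smul]⟩
    · obtain ⟨y, -, r⟩ := vG X s hs
      obtain ⟨g, rfl, rg⟩ := r.exists X
      refine ⟨_, ⟨g, ?_, rfl⟩, r⟩
      rintro _ ⟨x, hx, h1, c, hc, rfl⟩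
      obtain ⟨h3, k, h4⟩ := step_spec X rg hx
      refine ⟨_, h3, ?_, c * (ω ^ k)⁻¹, mul_ne_zero hc (inv_ne_zero (pow_ne_zero _ hω)), by
        rw [h4, Matrix.mulVec_smul, mul_smul, inv_smul_smul₀ (pow_ne_zero _ hω)]⟩
      obtain ⟨p, p', hp, h5, -, h6⟩ := (orb_spec hx).2 (hA x h1)
      rcases (by simpa using (show s ∈ [al, y0] from hs) : s = al ∨ s = y0) with rfl | rfl <;>
        rcases hp with ⟨rfl, rfl⟩ | ⟨rfl, rfl⟩
      exacts [h5 ▸ h1, (h6 h1).2.2, (h6 h1).2.2, h5 ▸ h1]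
  rw [← cntA, cntLt_eq, ← Set.ncard_coe_finset]
  symm
  refine Set.ncard_congr (fun x _ => F ∙ vec ω x) ?_ ?_ ?_
  · intro x hx
    have hx' : x < 131072 ∧ lab x &&& 2 = 2 := by simpa [inA] using hx
    have := rel_root X _ x hx'.1 (hA x hx'.2) rfl
    rw [if_pos hx'.2, vec_one] at this
    obtain ⟨g, hg, e⟩ := this.symm
    exact ⟨g, hg, by rw [e]⟩
  · intro x y hx hy e
    have hx' : x < 131072 ∧ lab x &&& 2 = 2 := by simpa [inA] using hx
    have hy' : y < 131072 ∧ lab y &&& 2 = 2 := by simpa [inA] using hy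
    obtain ⟨c, hc⟩ := Submodule.span_singleton_eq_span_singleton.1 e
    obtain ⟨_, _, -, -, -, h1⟩ := (orb_spec hx'.1).2 (hA x hx'.2)
    obtain ⟨_, _, -, -, -, h2⟩ := (orb_spec hy'.1).2 (hA y hy'.2)
    rw [← (h1 hx'.2).1, ← (h2 hy'.2).1]
    exact (can_eq_of_smul X (by omega) (by omega) c.ne_zero hc.symm).symm
  · rintro _ ⟨g, hg, rfl⟩
    obtain ⟨x, hx, h1, c, hc, e⟩ := (hU ▸ Subgroup.mem_top (⟨g, hg⟩ : threeJ3 F ω) : _ ∈ U') _
      ⟨1, by norm_num, by decide +kernel, 1, one_ne_zero, by rw [one_smul, vec_one]⟩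
    exact ⟨x, by simpa [inA] using ⟨hx, h1⟩, by
      rw [show (g : Matrix F9 F9 F) *ᵥ _ = _ from e, Submodule.span_singleton_smul_eq hc.isUnit]⟩

end J3M
end H15
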