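import Cfsg.Prelude.Def_Classical
import Cfsg.Agent.Lib.J3.Basic

/-!
# The triple cover of `J₃` inside `SU₉(2)`
-/

set_option autoImplicit false
set_option maxRecDepth 100000
set_option exponentiation.threshold 2000

namespace H15
namespace J3M
open Mdl Cfsg Cfsg.Spor Matrix

variable {F : Type*} [Field F] {ω : F}

theorem det_eq_one (X : Is4 F ω) (g : threeJ3 F ω) : ((g : GL F9 F) : Matrix F9 F9 F).det = 1 := by
  obtain ⟨d, hd⟩ : ∃ d : threeJ3 F ω →* Fˣ, ∀ g, (d g : F) = ((g : GL F9 F) : Matrix F9 F9 F).det :=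
    ⟨Matrix.GeneralLinearGroup.det.comp (threeJ3 F ω).subtype, fun g =>
      Matrix.GeneralLinearGroup.val_det_apply _⟩
  have hU : d.ker = ⊤ := by
    refine eq_top_of_map_mk (K := Subgroup.center _) ?_ (eq_top_of_pow X fun x hx => ?_)
    · rw [center_eq X, Subgroup.zpowers_le, MonoidHom.mem_ker, ← Units.val_eq_one, hd, sc_val,
        Matrix.det_smul, Matrix.det_one, mul_one, show Fintype.card F9 = 3 * 3 by decide, pow_mul,
        X.cube, one_pow]
    · obtain ⟨g, rfl⟩ := QuotientGroup.mk_surjective x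
      refine ⟨g ^ 18, ?_, by rw [map_pow, pow_succ]; exact mul_eq_right.2 hx⟩
      rw [SetLike.mem_coe, MonoidHom.mem_ker, ← Units.val_eq_one, map_pow, show 18 = 3 * 6 by norm_num,
        pow_mul, Units.val_pow_eq_pow_val, Units.val_pow_eq_pow_val, X.pow_three (Units.ne_zero _), one_pow]
  rw [← hd, Units.val_eq_one, ← MonoidHom.mem_ker, hU]
  trivial

theorem herm_of_star (X : Is4 F ω) {A : Matrix F9 F9 F} (h : (A.map X.frob)ᵀ * A = 1) (u v : F9 → F) :
    ∑ i, (A *ᵥ u) i * (A *ᵥ v) i ^ 2 = ∑ i, u i * v i ^ 2 := by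
  have e : (fun i => (A *ᵥ v) i ^ 2) = A.map X.frob *ᵥ (X.frob ∘ v) :=
    funext fun i => RingHom.map_mulVec X.frob A v i
  show (A *ᵥ u) ⬝ᵥ (fun i => (A *ᵥ v) i ^ 2) = u ⬝ᵥ (X.frob ∘ v)
  rw [e, Matrix.dotProduct_mulVec, ← Matrix.mulVec_transpose, Matrix.mulVec_mulVec, h, Matrix.one_mulVec]

theorem herm_preserved (X : Is4 F ω) (g : threeJ3 F ω) (u v : F9 → F) :
    ∑ i, (((g : GL F9 F) : Matrix F9 F9 F) *ᵥ u) i * (((g : GL F9 F) : Matrix F9 F9 F) *ᵥ v) i ^ 2 =
      ∑ i, u i * v i ^ 2 := by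
  have hU : preserving ((Units.coeHom _).comp (threeJ3 F ω).subtype)
      (fun u v : F9 → F => ∑ i, u i * v i ^ 2) = ⊤ := by
    have key : ∀ {g : threeJ3 F ω} {p : ℕ} (q : ℕ), R1 ω g p →
        chk4 ix 9 (fun w z => sq4 (ent4 ix 9 p z w)) q → o18.isOne (o18.mul q p) = true →
        g ∈ preserving ((Units.coeHom _).comp (threeJ3 F ω).subtype)
          (fun u v : F9 → F => ∑ i, u i * v i ^ 2) := fun q r c e =>
      herm_of_star X (((sndM X).isOne_iff ((sndM X).mul (R4.star X num r c) r)).1 e)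
    refine eq_top_of_map_mk (K := Subgroup.center _) ?_ (eq_top_of_allIn (snd X) (grpG X) fun s hs => ?_)
    · rw [center_eq X, Subgroup.zpowers_le]
      exact key (wop L5 wI) (R1_sc X) (by decide +kernel) (by decide +kernel)
    · obtain ⟨x, -, r⟩ := vG X s hs
      obtain ⟨g, rfl, rg⟩ := r.exists X
      refine ⟨_, ⟨g, ?_, rfl⟩, r⟩
      rcases (by simpa using (show s ∈ [al, y0] from hs) : s = al ∨ s = y0) with rfl | rfl
      · exact key stal rg (by decide +kernel) (by decide +kernel)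
      · exact key sty rg (by decide +kernel) (by decide +kernel)
  exact (hU ▸ Subgroup.mem_top g : g ∈ preserving ((Units.coeHom _).comp (threeJ3 F ω).subtype)
    (fun u v : F9 → F => ∑ i, u i * v i ^ 2)) u v

theorem exists_equiv_SU (X : Is4 F ω) : ∃ H : Subgroup (SU 9 F 2), Nonempty (threeJ3 F ω ≃* H) := by
  let e : Fin 9 ≃ F9 := (Fintype.equivFinOfCardEq (by decide)).symm
  let ψ : threeJ3 F ω →* SU 9 F 2 :=
    { toFun := fun g => ⟨⟨((g : GL F9 F) : Matrix F9 F9 F).submatrix e e, by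
          rw [Matrix.det_submatrix_equiv_self, det_eq_one X]⟩, fun u v => by
        show ∑ i, (Matrix.submatrix _ e e *ᵥ u) i * (Matrix.submatrix _ e e *ᵥ v) i ^ 2 = ∑ i, u i * v i ^ 2
        rw [Matrix.submatrix_mulVec_equiv, Matrix.submatrix_mulVec_equiv]
        have := herm_preserved X g (u ∘ e.symm) (v ∘ e.symm)
        rw [← e.sum_comp, ← e.sum_comp] at this
        simpa using this⟩
      map_one' := Subtype.ext (Subtype.ext (Matrix.submatrix_one_equiv e))
      map_mul' := fun a b => Subtype.ext (Subtype.ext (Matrix.submatrix_mul_equiv _ _ e e e).symm) }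
  exact ⟨ψ.range, ⟨MonoidHom.ofInjective fun a b h => Subtype.ext (Units.ext
    (Matrix.ext fun i j => by
      have := congrFun (congrFun (congrArg (fun z : SU 9 F 2 => z.1.1) h) (e.symm i)) (e.symm j)
      simpa [ψ] using this))⟩⟩

theorem exists_is4 : ∃ ω : GaloisField 2 2, Is4 (GaloisField 2 2) ω := by
  classical
  let _ := Fintype.ofFinite (GaloisField 2 2)
  have hF : Fintype.card (GaloisField 2 2) = 4 := by
    rw [Fintype.card_eq_nat_card, GaloisField.card 2 2 (by norm_num)]; norm_num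
  have := Fact.mk Nat.prime_three
  obtain ⟨u, hu⟩ := exists_prime_orderOf_dvd_card (G := (GaloisField 2 2)ˣ) 3 (by rw [Fintype.card_units, hF])
  have h3 : (u : GaloisField 2 2) ^ 3 = 1 := by
    rw [← Units.val_pow_eq_pow_val, ← hu, pow_orderOf_eq_one, Units.val_one]
  have h1 : (u : GaloisField 2 2) - 1 ≠ 0 := fun e => by
    rw [sub_eq_zero, Units.val_eq_one] at e
    simp [e] at hu
  exact ⟨u, is4_of_card hF (mul_left_cancel₀ h1 (by linear_combination h3))⟩

end J3M
end H15
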